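import Mathlib
import Cfsg.Prelude.Def_FusionComponents
import Cfsg.Agent.Lib.Helper80.FT.A0
import Cfsg.Agent.Lib.Helper80.FT.B1
import Cfsg.Agent.Lib.Helper80.FT.B3
import Cfsg.Agent.Lib.Helper80.FT.C2a
import Cfsg.Agent.Lib.Helper80.FT.N5

set_option autoImplicit false
open Cfsg Cfsg.FusionSystem

namespace Cfsg.Agent.Lib.Helper80.FT

universe u v w
variable {Γ : Type u} [Group Γ] {Ω' : Type v} [Group Ω']

theorem twist_normal {Ω : Type u} [Group Ω] {S : Subgroup Ω} (F : FusionSystem S) (α : ↥S ≃* ↥S)
    (hF : Same (twist α F) F) {T : Subgroup Ω} (E : FusionSystem T) (p : ℕ) (hE : E.IsNormalIn F p) :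
    (twist α E).IsNormalIn F p := by
  have hTS : T ≤ S := le_of_subsystem hE.1.2.2.1
  have hr : (S.subtype).range = S := S.range_subtype
  have h1 : Same (push S.subtype S.subtype_injective (pull S.subtype S.subtype_injective E)) E :=
    push_pull S.subtype S.subtype_injective E (by rw [hr]; exact hTS)
  have h2 : Same (push S.subtype S.subtype_injective (pull S.subtype S.subtype_injective F)) F :=
    push_pull S.subtype S.subtype_injective F (by rw [hr])
  have h3 : (push S.subtype S.subtype_injective (pull S.subtype S.subtype_injective E)).IsNormalIn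
      (push S.subtype S.subtype_injective (pull S.subtype S.subtype_injective F)) p :=
    h1.symm.elim (fun _ E' => E'.IsNormalIn
      (push S.subtype S.subtype_injective (pull S.subtype S.subtype_injective F)) p)
      (h2.symm.elim (fun _ F' => E.IsNormalIn F' p) hE)
  have h4 := (normalIn_iff S.subtype S.subtype_injective _ _ p).1 h3
  have h5 : (twist α E).IsNormalIn (twist α F) p :=
    (normalIn_iff (S.subtype.comp α.toMonoidHom) (kap_inj α) _ _ p).2 h4
  exact hF.elim (fun _ F' => (twist α E).IsNormalIn F' p) h5

end Cfsg.Agent.Lib.Helper80.FT
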