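import Mathlib
import Cfsg.Prelude.Def_FusionComponents
import Cfsg.Agent.Lib.Helper80.FT.A0
import Cfsg.Agent.Lib.Helper80.FT.B1
import Cfsg.Agent.Lib.Helper80.FT.C2a
import Cfsg.Agent.Lib.Helper80.FT.C2b
import Cfsg.Agent.Lib.Helper80.FT.C4
import Cfsg.Agent.Lib.Helper80.FT.W9

set_option autoImplicit false
open Cfsg Cfsg.FusionSystem

namespace Cfsg.Agent.Lib.Helper80.FT

universe u v w
variable {Γ : Type u} [Group Γ] {Ω' : Type v} [Group Ω']

theorem twist_twist {Ω : Type u} [Group Ω] {S : Subgroup Ω} (α β : ↥S ≃* ↥S) (hβ : β = α.symm)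
    {T : Subgroup Ω} (hT : T ≤ S) (E : FusionSystem T) : Same (twist α (twist β E)) E := by
  subst hβ
  have hi := S.subtype_injective
  have h12 : Function.Injective ((S.subtype.comp α.toMonoidHom).comp α.symm.toMonoidHom) :=
    (kap_inj α).comp α.symm.injective
  have s1 : Same (push S.subtype hi (push α.symm.toMonoidHom α.symm.injective (pull S.subtype hi E)))
      (push (S.subtype.comp α.symm.toMonoidHom) (kap_inj α.symm) (pull S.subtype hi E)) :=
    push_comp _ _ _ _ _ _
  have s2 : Same (pull S.subtype hi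
      (push (S.subtype.comp α.symm.toMonoidHom) (kap_inj α.symm) (pull S.subtype hi E)))
      (push α.symm.toMonoidHom α.symm.injective (pull S.subtype hi E)) :=
    (pull_same _ hi s1.symm).trans (pull_push _ hi _)
  have s3 := push_same (S.subtype.comp α.toMonoidHom) (kap_inj α) s2
  have s4 := push_comp α.symm.toMonoidHom α.symm.injective (S.subtype.comp α.toMonoidHom) (kap_inj α)
    h12 (pull S.subtype hi E)
  have e : (S.subtype.comp α.toMonoidHom).comp α.symm.toMonoidHom = S.subtype := by
    ext x; simp
  have s5 := push_congr e h12 hi (pull S.subtype hi E)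
  have s6 := push_pull S.subtype hi E (by rw [Subgroup.range_subtype]; exact hT)
  exact s3.trans (s4.trans (s5.trans s6))

end Cfsg.Agent.Lib.Helper80.FT
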