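import Mathlib
import Cfsg.Prelude.Def_FusionComponents
import Cfsg.Agent.Lib.Helper80.FT.A0
import Cfsg.Agent.Lib.Helper80.FT.C3

set_option autoImplicit false
open Cfsg Cfsg.FusionSystem

namespace Cfsg.Agent.Lib.Helper80.FT

universe u v w
variable {Γ : Type u} [Group Γ] {Ω' : Type v} [Group Ω']

theorem twist_mono {Ω : Type u} [Group Ω] {S : Subgroup Ω} (α : ↥S ≃* ↥S) {T U : Subgroup Ω}
    {E : FusionSystem T} {D : FusionSystem U} (h : E.IsSubsystemOf D) :
    (twist α E).IsSubsystemOf (twist α D) := by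
  exact (subsystem_iff _ _ _ _).2 (pull_mono _ _ h)

end Cfsg.Agent.Lib.Helper80.FT
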