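import Mathlib
import Cfsg.Prelude.Def_FusionComponents
import Cfsg.Agent.Lib.Helper80.FT.A0
import Cfsg.Agent.Lib.Helper80.FT.B1
import Cfsg.Agent.Lib.Helper80.FT.B3
import Cfsg.Agent.Lib.Helper80.FT.W8b
import Cfsg.Agent.Lib.Helper80.FT.A2
import Cfsg.Agent.Lib.Helper80.FT.A3
import Cfsg.Agent.Lib.Helper80.FT.A4
import Cfsg.Agent.Lib.Helper80.FT.A5

set_option autoImplicit false
open Cfsg Cfsg.FusionSystem

namespace Cfsg.Agent.Lib.Helper80.FT

universe u v w
variable {Γ : Type u} [Group Γ] {Ω' : Type v} [Group Ω']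

theorem layer_le_twist {Ω : Type u} [Group Ω] {S : Subgroup Ω} (F : FusionSystem S) (α β : ↥S ≃* ↥S)
    (hβ : β = α.symm) (hFα : Same (twist α F) F) (hFβ : Same (twist β F) F) {T : Subgroup Ω}
    (E : FusionSystem T) (p : ℕ) (hE : E.IsLayerOf F p) : E.IsSubsystemOf (twist α E) := by
  obtain ⟨hn, hc, hmin⟩ := hE
  refine hmin _ (twist α E) (twist_normal F α hFα E p hn) ?_
  intro U C hC
  have h1 : (twist β C).IsComponentIn F p := twist_component F β hFβ C p hC
  have h2 : (twist β C).IsSubsystemOf E := hc _ _ h1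
  have h3 : (twist α (twist β C)).IsSubsystemOf (twist α E) := twist_mono α h2
  have hU : U ≤ S := le_of_subnormal hC.1
  exact (twist_twist α β hβ hU C).elim (fun _ X => X.IsSubsystemOf (twist α E)) h3

end Cfsg.Agent.Lib.Helper80.FT
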