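import Mathlib
import Cfsg.Prelude.Def_FusionComponents
import Cfsg.Agent.Lib.Helper80.FT.A0
import Cfsg.Agent.Lib.Helper80.FT.B2
import Cfsg.Agent.Lib.Helper80.FT.B3
import Cfsg.Agent.Lib.Helper80.FT.C1

set_option autoImplicit false
open Cfsg Cfsg.FusionSystem

namespace Cfsg.Agent.Lib.Helper80.FT

universe u v w
variable {Γ : Type u} [Group Γ] {Ω' : Type v} [Group Ω']

theorem induced_mem_twist {Ω : Type u} [Group Ω] {S : Subgroup Ω} (α : ↥S ≃* ↥S) {T : Subgroup Ω} (hT : T ≤ S)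
    (E : FusionSystem T) (P : Subgroup Ω) (φ : ↥P →* Ω) (hφ : φ ∈ E.Hom P)
    (φ' : ↥(imageAlong (S.subtype.comp α.toMonoidHom) P) →* Ω)
    (h : InducedAlong (S.subtype.comp α.toMonoidHom) φ φ') :
    φ' ∈ (twist α E).Hom (imageAlong (S.subtype.comp α.toMonoidHom) P) := by
  obtain ⟨hP, hφS, hP', hind⟩ := h
  have hi := S.subtype_injective
  let φ0 : ↥(P.subgroupOf S) →* ↥S :=
    (φ.codRestrict S hφS).comp (Subgroup.subgroupOfEquivOfLe hP).toMonoidHom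
  have hφ0 : ∀ x : ↥(P.subgroupOf S), ((φ0 x : ↥S) : Ω) = φ ⟨x.1.1, x.2⟩ := fun x => rfl
  have hmap : P = (P.subgroupOf S).map S.subtype := by
    rw [Subgroup.subgroupOf_map_subtype, inf_eq_left.2 hP]
  have h0 : φ0 ∈ (pull S.subtype hi E).Hom (P.subgroupOf S) := by
    rw [mem_pull_iff]
    refine hom_cast E hmap hφ _ ?_
    intro x hxP hxQ
    have e := pushHom_apply S.subtype hi φ0
      (⟨⟨x, hP hxP⟩, Subgroup.mem_subgroupOf.2 hxP⟩ : ↥(P.subgroupOf S)) hxQ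
    exact e.trans (hφ0 _)
  refine (mem_push_iff (S.subtype.comp α.toMonoidHom) (kap_inj α) (pull S.subtype hi E) φ').2
    ⟨φ0, h0, ?_⟩
  apply pushHom_ext
  intro x hx
  exact hind ⟨x.1.1, x.2⟩

end Cfsg.Agent.Lib.Helper80.FT
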