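import Mathlib
import Cfsg.Prelude.Def_FusionComponents
import Cfsg.Agent.Lib.Helper80.FT.A0

set_option autoImplicit false
open Cfsg Cfsg.FusionSystem

namespace Cfsg.Agent.Lib.Helper80.FT

universe u v w
variable {Γ : Type u} [Group Γ] {Ω' : Type v} [Group Ω']

theorem imageAlong_eq_of_le {Ω : Type u} [Group Ω] {S : Subgroup Ω} [Finite S] (α : ↥S ≃* ↥S) {T : Subgroup Ω}
    (hT : T ≤ S) (h : T ≤ imageAlong (S.subtype.comp α.toMonoidHom) T) :
    imageAlong (S.subtype.comp α.toMonoidHom) T = T := by
  have hfin : Finite (imageAlong (S.subtype.comp α.toMonoidHom) T) := by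
    unfold imageAlong
    have : Finite (T.subgroupOf S) := inferInstance
    exact Finite.of_surjective _ ((S.subtype.comp α.toMonoidHom).subgroupMap_surjective (T.subgroupOf S))
  have hcard : Nat.card (imageAlong (S.subtype.comp α.toMonoidHom) T) = Nat.card T := by
    unfold imageAlong
    rw [Subgroup.card_map_of_injective (kap_inj α)]
    exact Nat.card_congr (Subgroup.subgroupOfEquivOfLe hT).toEquiv
  exact (Subgroup.eq_of_le_of_card_ge h hcard.le).symm

end Cfsg.Agent.Lib.Helper80.FT
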