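import Mathlib
import Cfsg.Prelude.Def_FusionComponents
import Cfsg.Agent.Lib.Helper80.FT.A0
import Cfsg.Agent.Lib.Helper80.FT.B1
import Cfsg.Agent.Lib.Helper80.FT.B3
import Cfsg.Agent.Lib.Helper80.FT.A1
import Cfsg.Agent.Lib.Helper80.FT.A4
import Cfsg.Agent.Lib.Helper80.FT.A5
import Cfsg.Agent.Lib.Helper80.FT.A6
import Cfsg.Agent.Lib.Helper80.FT.A7
import Cfsg.Agent.Lib.Helper80.FT.A8

set_option autoImplicit false
open Cfsg Cfsg.FusionSystem

namespace Cfsg.Agent.Lib.Helper80.FT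

universe u v w
variable {Γ : Type u} [Group Γ] {Ω' : Type v} [Group Ω']

theorem main {Ω : Type u} [Group Ω] {S : Subgroup Ω} [Finite S] (p : ℕ) (F : FusionSystem S)
    (α : ↥S ≃* ↥S) (hα : F.IsMorphism F (S.subtype.comp α.toMonoidHom))
    (hα' : F.IsMorphism F (S.subtype.comp α.symm.toMonoidHom))
    {T : Subgroup Ω} (E : FusionSystem T) (hE : E.IsLayerOf F p) :
    imageAlong (S.subtype.comp α.toMonoidHom) T = T ∧
      ∀ (P : Subgroup Ω) (φ : ↥P →* Ω), φ ∈ E.Hom P →
        ∀ φ' : ↥(imageAlong (S.subtype.comp α.toMonoidHom) P) →* Ω,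
          InducedAlong (S.subtype.comp α.toMonoidHom) φ φ' →
            φ' ∈ E.Hom (imageAlong (S.subtype.comp α.toMonoidHom) P) := by
  have hFα : Same (twist α F) F := twist_F F α hα hα'
  have hFβ : Same (twist α.symm F) F := twist_F F α.symm hα' (by rw [MulEquiv.symm_symm]; exact hα)
  have hT : T ≤ S := le_of_subsystem hE.1.1.2.2.1
  have h1 : E.IsSubsystemOf (twist α E) := layer_le_twist F α α.symm rfl hFα hFβ E p hE
  have h2 : E.IsSubsystemOf (twist α.symm E) :=
    layer_le_twist F α.symm α (MulEquiv.symm_symm α).symm hFβ hFα E p hE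
  refine ⟨imageAlong_eq_of_le α hT (le_of_subsystem h1), ?_⟩
  intro P φ hφ φ' hind
  have h3 : φ' ∈ (twist α E).Hom _ := induced_mem_twist α hT E P φ hφ φ' hind
  have h4 : (twist α E).IsSubsystemOf (twist α (twist α.symm E)) := twist_mono α h2
  have h5 : (twist α E).IsSubsystemOf E :=
    (twist_twist α α.symm rfl hT E).elim (fun _ X => (twist α E).IsSubsystemOf X) h4
  exact h5 _ h3

end Cfsg.Agent.Lib.Helper80.FT
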